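/-
Special rank one pairs with abelian unipotent subgroups of exponent p: `⟨a, b(a)⟩` is `SL₂(p)` or `PSL₂(p)`
(helper732, section 63).
-/
import Cfsg.Agent.H732.SteinbergSL2
import Cfsg.Agent.H732.SpecialAb
set_option linter.all false

set_option autoImplicit false
open Cfsg
open Cfsg.Agent.H731

namespace Cfsg.Agent.H732

/-! ### Powers with exponents in `ZMod p` -/

section zpow

variable {G : Type*} [Group G] {p : ℕ} [hp : Fact p.Prime]

theorem pow_mod_of_pow {g : G} (hg : g ^ p = 1) (n : ℕ) : g ^ (n % p) = g ^ n := by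
  conv_rhs => rw [← Nat.mod_add_div n p, pow_add, pow_mul, hg, one_pow, mul_one]

theorem zpw_add {g : G} (hg : g ^ p = 1) (s t : ZMod p) : g ^ (s + t).val = g ^ s.val * g ^ t.val := by
  rw [ZMod.val_add, pow_mod_of_pow hg, pow_add]

theorem zpw_mul {g : G} (hg : g ^ p = 1) (s t : ZMod p) : g ^ (s * t).val = (g ^ s.val) ^ t.val := by
  rw [ZMod.val_mul, pow_mod_of_pow hg, pow_mul]

theorem zpw_one (g : G) : g ^ (1 : ZMod p).val = g := by
  rw [ZMod.val_one'' hp.out.one_lt.ne', pow_one]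

theorem zpw_neg {g : G} (hg : g ^ p = 1) (s : ZMod p) : g ^ (-s).val = (g ^ s.val)⁻¹ := by
  rw [eq_inv_iff_mul_eq_one, ← zpw_add hg, neg_add_cancel, ZMod.val_zero, pow_zero]

theorem zpw_eq_one {g : G} (hg : g ^ p = 1) (hg1 : g ≠ 1) {s : ZMod p} (hs : g ^ s.val = 1) : s = 0 := by
  by_contra h0
  have h1 : g ^ (s * s⁻¹).val = 1 := by rw [zpw_mul hg, hs, one_pow]
  rw [mul_inv_cancel₀ h0, zpw_one] at h1
  exact hg1 h1

end zpow

/-! ### Homomorphisms from SL₂ with central kernel -/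

section ker

variable {k : Type*} [Field k] {G : Type*} [Group G]

theorem sl2_mem_center {g : Matrix.SpecialLinearGroup (Fin 2) k} (h01 : (g : Matrix (Fin 2) (Fin 2) k) 0 1 = 0)
    (h10 : (g : Matrix (Fin 2) (Fin 2) k) 1 0 = 0)
    (h : (g : Matrix (Fin 2) (Fin 2) k) 0 0 = (g : Matrix (Fin 2) (Fin 2) k) 1 1) :
    g ∈ Subgroup.center (Matrix.SpecialLinearGroup (Fin 2) k) := by
  rw [Subgroup.mem_center_iff]
  intro m
  apply sl2_ext <;> simp only [sl2_mul, h01, h10, h] <;> ring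

theorem sl2_center_entries {g : Matrix.SpecialLinearGroup (Fin 2) k}
    (hg : g ∈ Subgroup.center (Matrix.SpecialLinearGroup (Fin 2) k)) :
    (g : Matrix (Fin 2) (Fin 2) k) 0 1 = 0 ∧ (g : Matrix (Fin 2) (Fin 2) k) 1 0 = 0 ∧
    (g : Matrix (Fin 2) (Fin 2) k) 0 0 = (g : Matrix (Fin 2) (Fin 2) k) 1 1 ∧
    ((g : Matrix (Fin 2) (Fin 2) k) 0 0 = 1 ∨ (g : Matrix (Fin 2) (Fin 2) k) 0 0 = -1) := by
  rw [Subgroup.mem_center_iff] at hg
  have h1 := hg (up k 1)
  have h2 := hg (lo k 1)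
  have e1 := congrArg (fun g : Matrix.SpecialLinearGroup (Fin 2) k => (g : Matrix (Fin 2) (Fin 2) k) 0 0) h1
  have e2 := congrArg (fun g : Matrix.SpecialLinearGroup (Fin 2) k => (g : Matrix (Fin 2) (Fin 2) k) 0 1) h1
  have e3 := congrArg (fun g : Matrix.SpecialLinearGroup (Fin 2) k => (g : Matrix (Fin 2) (Fin 2) k) 0 0) h2
  simp only [sl2_mul, lo_00, lo_01, lo_10, lo_11, up_00, up_01, up_10, up_11] at e1 e2 e3
  have hdet := sl2_det g
  generalize (g : Matrix (Fin 2) (Fin 2) k) 0 0 = a at *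
  generalize (g : Matrix (Fin 2) (Fin 2) k) 0 1 = b at *
  generalize (g : Matrix (Fin 2) (Fin 2) k) 1 0 = c at *
  generalize (g : Matrix (Fin 2) (Fin 2) k) 1 1 = d at *
  have hc : c = 0 := by linear_combination e1
  have hb : b = 0 := by linear_combination -e3
  have had : a = d := by linear_combination -e2
  refine ⟨hb, hc, had, ?_⟩
  subst hc; subst hb; subst had
  have h5 : (a - 1) * (a + 1) = 0 := by linear_combination hdet
  rcases mul_eq_zero.1 h5 with h6 | h6
  · left; linear_combination h6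
  · right; linear_combination h6

/-- The kernel of a homomorphism from `SL₂(k)` contained in the centre is trivial or the centre. -/
theorem ker_eq_bot_or_center {φ : Matrix.SpecialLinearGroup (Fin 2) k →* G}
    (h : φ.ker ≤ Subgroup.center (Matrix.SpecialLinearGroup (Fin 2) k)) :
    φ.ker = ⊥ ∨ φ.ker = Subgroup.center (Matrix.SpecialLinearGroup (Fin 2) k) := by
  by_cases h1 : φ.ker = ⊥
  · exact Or.inl h1
  right
  refine le_antisymm h ?_
  obtain ⟨⟨g, hg⟩, hg1⟩ := (Subgroup.ne_bot_iff_exists_ne_one).1 h1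
  have hg1' : g ≠ 1 := fun h => hg1 (Subtype.ext h)
  obtain ⟨g01, g10, g0011, g00⟩ := sl2_center_entries (h hg)
  have g00' : (g : Matrix (Fin 2) (Fin 2) k) 0 0 = -1 := by
    rcases g00 with g00 | g00
    · exfalso; apply hg1'
      apply sl2_ext
      · rw [g00, one_00]
      · rw [g01, one_01]
      · rw [g10, one_10]
      · rw [← g0011, g00, one_11]
    · exact g00
  intro z hz
  obtain ⟨z01, z10, z0011, z00⟩ := sl2_center_entries hz
  rcases z00 with z00 | z00
  · have : z = 1 := by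
      apply sl2_ext
      · rw [z00, one_00]
      · rw [z01, one_01]
      · rw [z10, one_10]
      · rw [← z0011, z00, one_11]
    rw [this]; exact Subgroup.one_mem _
  · have : z = g := by
      apply sl2_ext
      · rw [z00, g00']
      · rw [z01, g01]
      · rw [z10, g10]
      · rw [← z0011, z00, ← g0011, g00']
    rw [this]; exact hg

/-- The image of `SL₂(k)` under a homomorphism with central kernel is `SL₂(k)` or `PSL₂(k)`. -/
theorem range_equiv {φ : Matrix.SpecialLinearGroup (Fin 2) k →* G}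
    (h : φ.ker ≤ Subgroup.center (Matrix.SpecialLinearGroup (Fin 2) k)) :
    Nonempty (φ.range ≃* Matrix.SpecialLinearGroup (Fin 2) k) ∨
    Nonempty (φ.range ≃* Matrix.ProjectiveSpecialLinearGroup (Fin 2) k) := by
  rcases ker_eq_bot_or_center h with h1 | h1
  · left
    exact ⟨(MonoidHom.ofInjective ((MonoidHom.ker_eq_bot_iff φ).1 h1)).symm⟩
  · right
    refine ⟨(QuotientGroup.quotientKerEquivRange φ).symm.trans ?_⟩
    exact QuotientGroup.quotientMulEquivOfEq h1

end ker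

/-! ### The subgroups `⟨a, b(a)⟩` -/

section minimal

variable {G : Type*} [Group G] {A B : Subgroup G} {p : ℕ} [hp : Fact p.Prime]

/-- `n(a) a n(a)⁻¹ = b(a)⁻¹`. -/
theorem nn_conj_self' (hs : IsSpecialRankOnePair A B) {a : G} (ha : a ∈ A) :
    nn A B a * a * (nn A B a)⁻¹ = (par A B a)⁻¹ := by
  have h1 := nn_conj_self hs (A.inv_mem ha)
  rw [nn_inv hs ha, par_inv hs ha, inv_inv, inv_inv] at h1
  have h2 := congrArg (fun z => z⁻¹) h1
  simpa [mul_assoc] using h2

theorem par_zpw (hs : IsSpecialRankOnePair A B) (hA : IsMulCommutative A) (hB : IsMulCommutative B)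
    (hexp : ∀ a ∈ A, a ^ p = 1) {a : G} (ha : a ∈ A) (ha1 : a ≠ 1) {t : ZMod p} (ht : t ≠ 0) :
    par A B (a ^ t.val) = (par A B a) ^ (t⁻¹).val := by
  have hexpB := pow_eq_one_right hs.1 hexp
  have ht0 : t.val ≠ 0 := fun h => ht ((ZMod.val_eq_zero t).1 h)
  have h1 : a ^ t.val ≠ 1 := fun h => ht (zpw_eq_one (hexp a ha) ha1 h)
  have h2 := par_pow hs hA hB ht0 ha h1
  rw [← h2, ← zpw_mul (hexpB _ (par_mem A B _)), mul_inv_cancel₀ ht, zpw_one]

theorem ww_eq_nn (hs : IsSpecialRankOnePair A B) (hA : IsMulCommutative A) (hB : IsMulCommutative B)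
    (hexp : ∀ a ∈ A, a ^ p = 1) {a : G} (ha : a ∈ A) (ha1 : a ≠ 1) {t : ZMod p} (ht : t ≠ 0) :
    ww (fun s : ZMod p => a ^ s.val) (fun s : ZMod p => (par A B a) ^ s.val) t = nn A B (a ^ t.val) := by
  have hexpB := pow_eq_one_right hs.1 hexp
  unfold ww nn
  rw [par_zpw hs hA hB hexp ha ha1 ht, ← zpw_neg (hexpB _ (par_mem A B _))]

theorem stRel (hs : IsSpecialRankOnePair A B) (hA : IsMulCommutative A) (hB : IsMulCommutative B)
    (hexp : ∀ a ∈ A, a ^ p = 1) {a : G} (ha : a ∈ A) (ha1 : a ≠ 1) :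
    StRel (fun s : ZMod p => a ^ s.val) (fun s : ZMod p => (par A B a) ^ s.val) := by
  have hexpB := pow_eq_one_right hs.1 hexp
  refine ⟨fun s t => zpw_add (hexp a ha) s t, fun s t => zpw_add (hexpB _ (par_mem A B _)) s t, ?_⟩
  intro t ht s
  rw [ww_eq_nn hs hA hB hexp ha ha1 ht]
  have hat : a ^ t.val ∈ A := A.pow_mem ha _
  have h1 := nn_conj_self' hs hat
  have h2 : a ^ s.val = (a ^ t.val) ^ (t⁻¹ * s).val := by
    rw [← zpw_mul (hexp a ha), ← mul_assoc, mul_inv_cancel₀ ht, one_mul]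
  have h3 : nn A B (a ^ t.val) * (a ^ t.val) ^ (t⁻¹ * s).val * (nn A B (a ^ t.val))⁻¹ =
      (nn A B (a ^ t.val) * a ^ t.val * (nn A B (a ^ t.val))⁻¹) ^ (t⁻¹ * s).val := by
    rw [conj_pow]
  change nn A B (a ^ t.val) * a ^ s.val * (nn A B (a ^ t.val))⁻¹ = par A B a ^ (-(t⁻¹ ^ 2 * s)).val
  rw [h2, h3, h1, par_zpw hs hA hB hexp ha ha1 ht, ← zpw_neg (hexpB _ (par_mem A B _)),
    ← zpw_mul (hexpB _ (par_mem A B _))]
  congr 2
  ring

/-- For abelian unipotent subgroups of exponent `p` there is a homomorphism from `SL₂(p)` onto `⟨a, b(a)⟩` with central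
kernel. -/
theorem exists_hom_minimal (hs : IsSpecialRankOnePair A B) (hA : IsMulCommutative A) (hB : IsMulCommutative B)
    (hexp : ∀ a ∈ A, a ^ p = 1) {a : G} (ha : a ∈ A) (ha1 : a ≠ 1) :
    ∃ φ : Matrix.SpecialLinearGroup (Fin 2) (ZMod p) →* G,
      φ.range = Subgroup.closure ({a, par A B a} : Set G) ∧
      φ.ker ≤ Subgroup.center (Matrix.SpecialLinearGroup (Fin 2) (ZMod p)) ∧
      (∀ s, φ (up (ZMod p) s) = a ^ s.val) ∧ (∀ s, φ (lo (ZMod p) s) = (par A B a) ^ s.val) := by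
  have hexpB := pow_eq_one_right hs.1 hexp
  have hst := stRel hs hA hB hexp ha ha1
  obtain ⟨φ, hφx, hφy, hφ0, hφ1⟩ := exists_hom hst (hmul_of_finite hst)
  refine ⟨φ, ?_, ?_, hφx, hφy⟩
  · apply le_antisymm
    · rw [MonoidHom.range_eq_map, ← lower_sup_upper, Subgroup.map_le_iff_le_comap]
      refine sup_le ?_ ?_
      · intro g hg
        obtain ⟨c, rfl⟩ := mem_lower_iff.1 hg
        rw [Subgroup.mem_comap, hφy]
        exact Subgroup.pow_mem _ (Subgroup.subset_closure (by simp)) _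
      · intro g hg
        obtain ⟨c, rfl⟩ := mem_upper_iff.1 hg
        rw [Subgroup.mem_comap, hφx]
        exact Subgroup.pow_mem _ (Subgroup.subset_closure (by simp)) _
    · rw [Subgroup.closure_le]
      rintro g (rfl | hg)
      · exact ⟨up (ZMod p) 1, by rw [hφx, zpw_one]⟩
      · rw [Set.mem_singleton_iff] at hg
        subst hg
        exact ⟨lo (ZMod p) 1, by rw [hφy, zpw_one]⟩
  · intro g hg
    rw [MonoidHom.mem_ker] at hg
    have hxA : ∀ s : ZMod p, a ^ s.val ∈ A := fun s => A.pow_mem ha _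
    by_cases hc : (g : Matrix (Fin 2) (Fin 2) (ZMod p)) 1 0 = 0
    · rw [hφ0 g hc] at hg
      have hdet := sl2_det g
      rw [hc, mul_zero, sub_zero] at hdet
      have ha0 : (g : Matrix (Fin 2) (Fin 2) (ZMod p)) 0 0 ≠ 0 := left_ne_zero_of_mul_eq_one hdet
      -- h ∈ A and normalizes B
      have hh1 : hh (fun s : ZMod p => a ^ s.val) (fun s : ZMod p => (par A B a) ^ s.val)
          ((g : Matrix (Fin 2) (Fin 2) (ZMod p)) 0 0) ∈ A := by
        rw [eq_inv_of_mul_eq_one_left hg]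
        exact A.inv_mem (hxA _)
      have hh2 : conjBy B (hh (fun s : ZMod p => a ^ s.val) (fun s : ZMod p => (par A B a) ^ s.val)
          ((g : Matrix (Fin 2) (Fin 2) (ZMod p)) 0 0)) = B := by
        unfold hh
        rw [ww_eq_nn hs hA hB hexp ha ha1 ha0, ww_eq_nn hs hA hB hexp ha ha1 (t := -1) (by simp),
          ← conjBy_conjBy, conjBy_nn_right hs (A.pow_mem ha _)
            (fun h => (by simp : (-1 : ZMod p) ≠ 0) (zpw_eq_one (hexp a ha) ha1 h)),
          conjBy_nn_left hs (A.pow_mem ha _) (fun h => ha0 (zpw_eq_one (hexp a ha) ha1 h))]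
      have hh3 := rankOne_eq_one hs.1 hh1 hh2
      rw [hh3, one_mul] at hg
      have h5 := zpw_eq_one (hexp a ha) ha1 hg
      have h01 : (g : Matrix (Fin 2) (Fin 2) (ZMod p)) 0 1 = 0 := by
        rcases mul_eq_zero.1 h5 with h6 | h6
        · exact absurd h6 (inv_ne_zero ha0)
        · exact h6
      have h7 := hst.h_conj_x ha0 1
      rw [hh3] at h7
      simp only [one_mul, inv_one, mul_one] at h7
      have h8 : a ^ ((g : Matrix (Fin 2) (Fin 2) (ZMod p)) 0 0 ^ 2 - 1).val = 1 := by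
        rw [sub_eq_add_neg, zpw_add (hexp a ha), zpw_neg (hexp a ha), ← h7, mul_inv_cancel]
      have h9 := zpw_eq_one (hexp a ha) ha1 h8
      refine sl2_mem_center h01 hc ?_
      have h10 : (g : Matrix (Fin 2) (Fin 2) (ZMod p)) 0 0 * (g : Matrix (Fin 2) (Fin 2) (ZMod p)) 0 0 =
          (g : Matrix (Fin 2) (Fin 2) (ZMod p)) 0 0 * (g : Matrix (Fin 2) (Fin 2) (ZMod p)) 1 1 := by
        rw [hdet]; linear_combination h9
      exact mul_left_cancel₀ ha0 h10
    · exfalso
      rw [hφ1 g hc] at hg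
      have hc' : -((g : Matrix (Fin 2) (Fin 2) (ZMod p)) 1 0)⁻¹ ≠ 0 := neg_ne_zero.2 (inv_ne_zero hc)
      have hw : ww (fun s : ZMod p => a ^ s.val) (fun s : ZMod p => (par A B a) ^ s.val)
          (-((g : Matrix (Fin 2) (Fin 2) (ZMod p)) 1 0)⁻¹) ∈ A := by
        have h1 : ww (fun s : ZMod p => a ^ s.val) (fun s : ZMod p => (par A B a) ^ s.val)
            (-((g : Matrix (Fin 2) (Fin 2) (ZMod p)) 1 0)⁻¹) =
            (a ^ ((g : Matrix (Fin 2) (Fin 2) (ZMod p)) 0 0 / (g : Matrix (Fin 2) (Fin 2) (ZMod p)) 1 0).val)⁻¹ *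
              1 * (a ^ ((g : Matrix (Fin 2) (Fin 2) (ZMod p)) 1 1 /
                (g : Matrix (Fin 2) (Fin 2) (ZMod p)) 1 0).val)⁻¹ := by
          rw [← hg]; simp [mul_assoc]
        rw [h1]
        exact A.mul_mem (A.mul_mem (A.inv_mem (hxA _)) A.one_mem) (A.inv_mem (hxA _))
      rw [ww_eq_nn hs hA hB hexp ha ha1 hc'] at hw
      have h2 := conjBy_nn_left hs (A.pow_mem ha _) (fun h => hc' (zpw_eq_one (hexp a ha) ha1 h))
      rw [conjBy_of_mem hw] at h2
      exact hs.1.ne h2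

theorem closure_equiv (hs : IsSpecialRankOnePair A B) (hA : IsMulCommutative A) (hB : IsMulCommutative B)
    (hexp : ∀ a ∈ A, a ^ p = 1) {a : G} (ha : a ∈ A) (ha1 : a ≠ 1) :
    Nonempty (↥(Subgroup.closure ({a, par A B a} : Set G)) ≃* Matrix.SpecialLinearGroup (Fin 2) (ZMod p)) ∨
    Nonempty (↥(Subgroup.closure ({a, par A B a} : Set G)) ≃*
      Matrix.ProjectiveSpecialLinearGroup (Fin 2) (ZMod p)) := by
  obtain ⟨φ, hr, hk, -, -⟩ := exists_hom_minimal hs hA hB hexp ha ha1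
  rw [← hr]
  exact range_equiv hk

end minimal

end Cfsg.Agent.H732
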